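-- Team project OOG (S2413, helper55), package [LEVIOM] (helper53):
-- the Levi image of `SL_m` lies in `Ω` (it is generated by transvections, whose images are
-- Siegel transformations).
import Mathlib
import Cfsg.Agent.Lib.Helper55.OOG.Defs
import Cfsg.Agent.Lib.Helper5.SLGen

set_option autoImplicit false
open scoped Matrix

namespace Cfsg.Agent.Lib.Helper53.OOG

open Cfsg.Agent.Lib.Helper55.OOG

universe u

/-- [LEVIOM] -/
theorem pkgLeviOm_of (hXL : PkgXL.{u}) (hOm : PkgOm.{u}) : PkgLeviOm.{u} := by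
  intro m F _ _ hodd hm L hL g
  haveI : Nontrivial (Fin m) := Fin.nontrivial_iff_two_le.2 hm
  have h : (Cfsg.Omega F (Cfsg.quadFormOdd m F)).comap L = ⊤ := by
    apply Cfsg.Agent.Lib.Helper5.eq_top_of_transvection_mem
    intro i j hij c
    rw [Subgroup.mem_comap]
    apply hOm m F hodd (Fv j) (c • E i) _ (Q_Fv j) _ (hXL m F L hL i j hij c)
    rw [B_smul_right, B_Fv_E, if_neg (Ne.symm hij), mul_zero]
  have h2 : g ∈ (Cfsg.Omega F (Cfsg.quadFormOdd m F)).comap L := by
    rw [h]
    trivial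
  exact h2

end Cfsg.Agent.Lib.Helper53.OOG
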