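-- Team project OOG (S2413, helper55), package [XL] (helper53):
-- the Levi image of the transvection `1 + c E_{ij}` is the long root element `ρ_{f_j, c e_i}`.
import Mathlib
import Cfsg.Agent.Lib.Helper55.OOG.Defs

set_option autoImplicit false
open scoped Matrix

namespace Cfsg.Agent.Lib.Helper53.OOG

open Cfsg.Agent.Lib.Helper55.OOG

universe u

/-- [XL] -/
theorem pkgXL : PkgXL.{u} := by
  intro m F _ L hL i j hij c v
  rw [hL]
  rw [B_Fv, B_smul_right, B_E, Q_smul, Q_E, mul_zero, zero_mul, add_zero]
  have hg : ((Matrix.SpecialLinearGroup.transvection hij c :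
      Matrix.SpecialLinearGroup (Fin m) F) : Matrix (Fin m) (Fin m) F) =
      Matrix.transvection i j c := rfl
  have hinv : (Matrix.transvection i j c)⁻¹ = Matrix.transvection i j (-c) := by
    apply Matrix.inv_eq_right_inv
    rw [Matrix.transvection_mul_transvection_same i j hij, add_neg_cancel, Matrix.transvection_zero]
  unfold leviMat
  rw [hg, hinv]
  have hT : ∀ (a b : Fin m) (d : F) (x : Fin m → F),
      (Matrix.transvection a b d) *ᵥ x = x + (d * x b) • Pi.single a (1 : F) := by
    intro a b d x
    unfold Matrix.transvection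
    rw [Matrix.add_mulVec, Matrix.one_mulVec, Matrix.single_mulVec_eq]
  have hTt : (Matrix.transvection i j (-c))ᵀ = Matrix.transvection j i (-c) := by
    unfold Matrix.transvection
    rw [Matrix.transpose_add, Matrix.transpose_one, Matrix.transpose_single]
  rw [hTt, Matrix.fromBlocks_mulVec, Matrix.fromBlocks_mulVec]
  simp only [Matrix.zero_mulVec, add_zero, zero_add, Matrix.one_mulVec, hT]
  funext k
  rcases k with k | k | k
  · simp
  · simp only [Sum.elim_inr, Sum.elim_inl, Pi.add_apply, Pi.sub_apply, Pi.smul_apply,
      Function.comp_apply, smul_eq_mul]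
    by_cases hk : k = i
    · subst hk
      simp
      ring
    · simp [hk]
  · simp only [Sum.elim_inr, Pi.add_apply, Pi.sub_apply, Pi.smul_apply,
      Function.comp_apply, smul_eq_mul]
    by_cases hk : k = j
    · subst hk
      simp
      ring
    · simp [hk]

end Cfsg.Agent.Lib.Helper53.OOG
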